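import Mathlib
import Cfsg.Agent.H429.CS.KStep
import Cfsg.Agent.H364.ML
import Cfsg.Agent.H364.Reduce
import Cfsg.Agent.LThree.Red

/-!
# The simple factor of a group with perfect primes (helper60, S3677)

`R` is a number all of whose prime divisors `r` are perfect (`PP G r m`), `K` the largest normal subgroup of order prime
to `R`. If `m * m ≤ |G/K|` then `G/K` has a unique minimal normal subgroup, which is simple and non-abelian, of order
divisible by a prime divisor of `R`.
-/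

set_option autoImplicit false

namespace Cfsg.Agent.H60.DE

open Subgroup Cfsg Cfsg.Agent.H364 Cfsg.Agent.H429.CS

universe u

set_option linter.unusedSectionVars false

variable {G : Type u} [Group G] [Finite G] {m R : ℕ}

/-- lifting elements of order `r` modulo a normal subgroup of order prime to `r` -/
theorem exists_lift {r : ℕ} (hr : r.Prime) (K : Subgroup G) [K.Normal] (hK : ¬ r ∣ Nat.card K) {x : G ⧸ K}
    (hx : orderOf x = r) : ∃ y : G, orderOf y = r ∧ QuotientGroup.mk' K y = x := by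
  obtain ⟨g, rfl⟩ := QuotientGroup.mk'_surjective K x
  have h1 : g ^ r ∈ K := by
    rw [← QuotientGroup.eq_one_iff]
    have h2 : (QuotientGroup.mk' K g) ^ r = 1 := by rw [← hx]; exact pow_orderOf_eq_one _
    rw [← map_pow] at h2
    exact h2
  set c := Nat.card K with hc
  have h2 : (g ^ c) ^ r = 1 := by
    rw [← pow_mul, mul_comm, pow_mul]
    have h3 := pow_card_eq_one' (x := (⟨g ^ r, h1⟩ : K))
    exact congrArg Subtype.val h3
  have hcop : Nat.Coprime c r := Nat.Coprime.symm ((Nat.Prime.coprime_iff_not_dvd hr).2 hK)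
  obtain ⟨u, hu⟩ := Nat.exists_mul_mod_eq_one_of_coprime hcop hr.one_lt
  have h4 : QuotientGroup.mk' K ((g ^ c) ^ u) = QuotientGroup.mk' K g := by
    rw [← pow_mul, map_pow]
    conv_rhs => rw [← pow_one (QuotientGroup.mk' K g)]
    rw [pow_eq_pow_iff_modEq, hx]
    show c * u % r = 1 % r
    rw [hu.2, Nat.mod_eq_of_lt hr.one_lt]
  refine ⟨(g ^ c) ^ u, ?_, h4⟩
  have h5 : orderOf ((g ^ c) ^ u) ∣ r := by
    apply orderOf_dvd_of_pow_eq_one
    rw [← pow_mul, mul_comm, pow_mul, h2, one_pow]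
  rcases (Nat.dvd_prime hr).1 h5 with h6 | h6
  · exfalso
    rw [orderOf_eq_one_iff] at h6
    rw [h6, map_one] at h4
    rw [← h4, orderOf_one] at hx
    exact hr.one_lt.ne hx
  · exact h6

/-- what is known about the simple factor -/
structure Soc (G : Type u) [Group G] (R m : ℕ) (K : Subgroup G) [K.Normal] (S : Subgroup (G ⧸ K)) : Prop where
  cop : (Nat.card K).Coprime R
  normal : S.Normal
  simple : IsSimpleGroup S
  nonab : ¬ ∀ a b : S, a * b = b * a
  cent : centralizer (S : Set (G ⧸ K)) = ⊥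
  dvd : ∃ r, r.Prime ∧ r ∣ R ∧ r ∣ Nat.card S
  cq : ∀ r, r.Prime → r ∣ R → ∀ y : G ⧸ K, orderOf y = r → Nat.card (centralizer ({y} : Set (G ⧸ K))) ∣ m
  cn : ∀ r, r.Prime → r ∣ R → ∀ y : G ⧸ K, orderOf y = r → Group.IsNilpotent (centralizer ({y} : Set (G ⧸ K)))

theorem cent_quot (hPP : ∀ r, r.Prime → r ∣ R → PP G r m) (K : Subgroup G) [K.Normal] (hK : (Nat.card K).Coprime R)
    {r : ℕ} (hr : r.Prime) (hrR : r ∣ R) {y : G ⧸ K} (hy : orderOf y = r) :
    Nat.card (centralizer ({y} : Set (G ⧸ K))) ∣ m ∧ Group.IsNilpotent (centralizer ({y} : Set (G ⧸ K))) := by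
  have hrK : ¬ r ∣ Nat.card K := fun h => by
    have := Nat.dvd_gcd h hrR
    rw [hK] at this
    exact hr.one_lt.ne' (Nat.dvd_one.1 this)
  obtain ⟨x, hx, rfl⟩ := exists_lift hr K hrK hy
  have hP := hPP r hr hrR
  have hc : (Nat.card K).Coprime r := Nat.Coprime.symm ((Nat.Prime.coprime_iff_not_dvd hr).2 hrK)
  rw [Cfsg.Agent.LThree.Red.centralizer_mk hr K hc hx]
  constructor
  · exact (card_map_dvd _ _).trans (hP.cent x hx)
  · have := hP.nil x hx
    exact Group.nilpotent_of_surjective ((QuotientGroup.mk' K).subgroupMap (centralizer ({x} : Set G)))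
      ((QuotientGroup.mk' K).subgroupMap_surjective _)

/-- **The simple factor.** -/
theorem exists_soc (hPP : ∀ r, r.Prime → r ∣ R → PP G r m) (hR : ∃ r, r.Prime ∧ r ∣ R)
    (hfull : ∀ r, r.Prime → r ∣ R → r ^ (Nat.card G).factorization r ≤ m)
    (hbig : ∀ (K : Subgroup G) [K.Normal], (Nat.card K).Coprime R → m * m ≤ Nat.card (G ⧸ K)) :
    ∃ (K : Subgroup G) (_ : K.Normal) (S : Subgroup (G ⧸ K)), Soc G R m K S := by
  obtain ⟨K, hKn, hKm, hmax⟩ := exists_core G R
  have hm0 : m ≠ 0 := by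
    obtain ⟨r, hr, hrR⟩ := hR
    have h1 := hfull r hr hrR
    have h2 : 0 < r ^ (Nat.card G).factorization r := pow_pos hr.pos _
    omega
  have hGK : Nat.card K * Nat.card (G ⧸ K) = Nat.card G := by
    rw [← Subgroup.card_mul_index K, Subgroup.index_eq_card]
  have hbK := hbig K hKm
  have hcq : ∀ r, r.Prime → r ∣ R → ∀ y : G ⧸ K, orderOf y = r →
      Nat.card (centralizer ({y} : Set (G ⧸ K))) ∣ m ∧ Group.IsNilpotent (centralizer ({y} : Set (G ⧸ K))) :=
    fun r hr hrR y hy => cent_quot hPP K hKm hr hrR hy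
  have hrK : ∀ r, r.Prime → r ∣ R → ¬ r ∣ Nat.card K := fun r hr hrR h => by
    have := Nat.dvd_gcd h hrR
    rw [hKm] at this
    exact hr.one_lt.ne' (Nat.dvd_one.1 this)
  -- no normal `r`-subgroup
  have hnop : ∀ r, r.Prime → r ∣ R → ∀ N : Subgroup (G ⧸ K), N.Normal → IsPGroup r N → r ∣ Nat.card N → False := by
    intro r hr hrR N hNn hNp hrN
    have := Fact.mk hr
    obtain ⟨y, hy⟩ := exists_prime_orderOf_dvd_card' r hrN
    have hy' : orderOf (y : G ⧸ K) = r := by rw [Subgroup.orderOf_coe]; exact hy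
    have h1 := (index_lt_of_normal N y.2).resolve_right (fun h => by
      rw [h, orderOf_one] at hy'
      exact hr.one_lt.ne hy')
    have h2 := Nat.le_of_dvd (Nat.pos_of_ne_zero hm0) (hcq r hr hrR _ hy').1
    have h3 := Subgroup.card_mul_index (centralizer ({(y : G ⧸ K)} : Set (G ⧸ K)))
    obtain ⟨k, hk⟩ := IsPGroup.iff_card.1 hNp
    have h4 : k ≤ (Nat.card G).factorization r := by
      rw [← hr.pow_dvd_iff_le_factorization Nat.card_pos.ne', ← hk]
      exact (Subgroup.card_subgroup_dvd_card N).trans (Dvd.intro_left _ hGK)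
    have h5 : Nat.card N ≤ m := by
      rw [hk]; exact (Nat.pow_le_pow_right hr.pos h4).trans (hfull r hr hrR)
    have h6 : Nat.card (G ⧸ K) < m * m := by
      rw [← h3]
      calc _ ≤ m * (centralizer ({(y : G ⧸ K)} : Set (G ⧸ K))).index := Nat.mul_le_mul_right _ h2
        _ < m * m := Nat.mul_lt_mul_of_pos_left (lt_of_lt_of_le h1 h5) (Nat.pos_of_ne_zero hm0)
    omega
  -- minimal normal subgroups
  have hmins : ∀ N : Subgroup (G ⧸ K), N.Normal → N ≠ ⊥ →
      (∀ M : Subgroup (G ⧸ K), M.Normal → M ≤ N → M = ⊥ ∨ M = N) →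
      IsSimpleGroup N ∧ (¬ ∀ a b : N, a * b = b * a) ∧ ∃ r, r.Prime ∧ r ∣ R ∧ r ∣ Nat.card N := by
    intro N hNn hN1 hmin
    obtain ⟨r, hr, hrN, hrR⟩ := Nat.Prime.not_coprime_iff_dvd.1 (fun hc => hN1 (core_quotient hKm hmax N hNn hc))
    rcases minimal_normal_cases2 N hN1 hmin with ⟨t, ht, hpg⟩ | ⟨k, S, hk, hSN, hS, hSna, hSt, hScard, hScomm, hSsup⟩
    · exfalso
      have := Fact.mk ht
      obtain ⟨a, ha⟩ := IsPGroup.iff_card.1 hpg
      have h1 : r ∣ t ^ a := by rw [← ha]; exact hrN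
      have h2 := (Nat.prime_dvd_prime_iff_eq hr ht).1 (hr.dvd_of_dvd_pow h1)
      subst h2
      exact hnop r hr hrR N hNn hpg hrN
    · have hk1 : k = 1 := by
        by_contra hne
        have hk2 : 1 < k := by omega
        have h01 : (⟨0, hk⟩ : Fin k) ≠ ⟨1, hk2⟩ := fun h => by simp at h
        have := Fact.mk hr
        obtain ⟨y, hy⟩ := exists_prime_orderOf_dvd_card' r (hSt r hr hrN ⟨0, hk⟩)
        have hy' : orderOf (y : G ⧸ K) = r := by rw [Subgroup.orderOf_coe]; exact hy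
        have hle : S ⟨1, hk2⟩ ≤ centralizer ({(y : G ⧸ K)} : Set (G ⧸ K)) := by
          intro x hx
          rw [mem_centralizer_singleton_iff]
          exact (hScomm _ _ h01 _ y.2 _ hx).symm.eq
        have hnil := (hcq r hr hrR _ hy').2
        have hnil2 : Group.IsNilpotent (S ⟨1, hk2⟩) :=
          H566.nilp_of_inj hnil (inclusion hle) (inclusion_injective hle)
        have hsolv : Group.IsSolvable (S ⟨1, hk2⟩) := inferInstance
        have := hS ⟨1, hk2⟩
        exact hSna ⟨1, hk2⟩ (IsSimpleGroup.comm_iff_isSolvable.2 hsolv)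
      subst hk1
      have hNS : S 0 = N := by
        rw [← hSsup]
        exact (iSup_unique (f := S)).symm
      exact ⟨hNS ▸ hS 0, hNS ▸ hSna 0, r, hr, hrR, hrN⟩
  have hnt : Nontrivial (G ⧸ K) := by
    rw [← Finite.one_lt_card_iff_nontrivial]
    obtain ⟨r, hr, hrR⟩ := hR
    have h1 := (hPP r hr hrR).dvd
    rw [← hGK] at h1
    have h2 := (hr.dvd_mul.1 h1).resolve_left (hrK r hr hrR)
    exact lt_of_lt_of_le hr.one_lt (Nat.le_of_dvd Nat.card_pos h2)
  obtain ⟨S, hSn, hS1, hSmin⟩ := exists_minimal_normal (G ⧸ K)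
  obtain ⟨hSs, hSna, r, hr, hrR, hrS⟩ := hmins S hSn hS1 hSmin
  refine ⟨K, hKn, S, hKm, hSn, hSs, hSna, ?_, ⟨r, hr, hrR, hrS⟩, fun r hr hrR y hy => (hcq r hr hrR y hy).1,
    fun r hr hrR y hy => (hcq r hr hrR y hy).2⟩
  by_contra hC
  obtain ⟨N, hNn, hNC, hN1, hNmin⟩ := exists_minimal_normal_le (centralizer (S : Set (G ⧸ K))) inferInstance hC
  obtain ⟨hNs, hNna, -⟩ := hmins N hNn hN1 hNmin
  have := Fact.mk hr
  obtain ⟨y, hy⟩ := exists_prime_orderOf_dvd_card' r hrS
  have hy' : orderOf (y : G ⧸ K) = r := by rw [Subgroup.orderOf_coe]; exact hy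
  have hle : N ≤ centralizer ({(y : G ⧸ K)} : Set (G ⧸ K)) := by
    intro x hx
    rw [mem_centralizer_singleton_iff]
    exact (Subgroup.mem_centralizer_iff.1 (hNC hx) _ y.2).symm
  have hnil := (hcq r hr hrR _ hy').2
  have hnil2 : Group.IsNilpotent N := H566.nilp_of_inj hnil (inclusion hle) (inclusion_injective hle)
  have hsolv : Group.IsSolvable N := inferInstance
  exact hNna (IsSimpleGroup.comm_iff_isSolvable.2 hsolv)

namespace Soc

variable {K : Subgroup G} [K.Normal] {S : Subgroup (G ⧸ K)}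

omit [Finite G] in
theorem not_dvd (h : Soc G R m K S) {r : ℕ} (hr : r.Prime) (hrR : r ∣ R) : ¬ r ∣ Nat.card K := fun h1 => by
  have := Nat.dvd_gcd h1 hrR
  rw [h.cop] at this
  exact hr.one_lt.ne' (Nat.dvd_one.1 this)

omit [Finite G] in
theorem nonab' (h : Soc G R m K S) : ¬ IsMulCommutative S := fun hc => h.nonab fun a b => hc.is_comm.comm a b

omit [Finite G] in
theorem card_eq (_h : Soc G R m K S) : Nat.card G = Nat.card K * (S.index * Nat.card S) := by
  rw [mul_comm S.index, Subgroup.card_mul_index, ← Subgroup.card_mul_index K, Subgroup.index_eq_card]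

theorem index_pos (_h : Soc G R m K S) : 0 < S.index := Nat.pos_of_ne_zero Subgroup.index_ne_zero_of_finite

theorem index_dvd (h : Soc G R m K S) : S.index ∣ Nat.card (Cfsg.Out S) := by
  have := h.simple
  have := h.normal
  exact index_dvd_out S h.nonab h.cent

theorem card_dvd (h : Soc G R m K S) : Nat.card S ∣ Nat.card G := by
  rw [h.card_eq]
  exact (Dvd.intro_left _ rfl : Nat.card S ∣ S.index * Nat.card S).mul_left _

/-- the centralizer in `S` -/
theorem cs (h : Soc G R m K S) {r : ℕ} (hr : r.Prime) (hrR : r ∣ R) {y : S} (hy : orderOf y = r) :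
    Nat.card (centralizer ({y} : Set S)) ∣ m := by
  have hy' : orderOf (y : G ⧸ K) = r := by rw [Subgroup.orderOf_coe]; exact hy
  refine dvd_trans ?_ (h.cq r hr hrR _ hy')
  have hle : (centralizer ({y} : Set S)).map S.subtype ≤ centralizer ({(y : G ⧸ K)} : Set (G ⧸ K)) := by
    rintro _ ⟨x, hx, rfl⟩
    rw [SetLike.mem_coe, mem_centralizer_singleton_iff] at hx
    rw [mem_centralizer_singleton_iff]
    exact congrArg Subtype.val hx
  have h1 : Nat.card ((centralizer ({y} : Set S)).map S.subtype) = Nat.card (centralizer ({y} : Set S)) :=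
    Subgroup.card_map_of_injective S.subtype_injective
  rw [← h1]
  exact Subgroup.card_dvd_of_le hle

theorem t_dvd (h : Soc G R m K S) {t : ℕ} (ht : t.Prime) (htK : ¬ t ∣ Nat.card K) {T : ℕ} (hT : ∃ k, T = t ^ k)
    (hTG : T ∣ Nat.card G) : T ∣ S.index * Nat.card S := by
  rw [h.card_eq] at hTG
  obtain ⟨k, rfl⟩ := hT
  exact (Nat.Coprime.pow_left k ((Nat.Prime.coprime_iff_not_dvd ht).2 htK)).dvd_of_dvd_mul_left hTG

/-- a number coprime to `|K|` -/
theorem dvd_of_cop (h : Soc G R m K S) {T : ℕ} (hT : ∀ t, t.Prime → t ∣ T → ¬ t ∣ Nat.card K) (hTG : T ∣ Nat.card G) :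
    T ∣ S.index * Nat.card S := by
  rw [h.card_eq] at hTG
  refine Nat.Coprime.dvd_of_dvd_mul_left ?_ hTG
  rw [Nat.coprime_iff_gcd_eq_one]
  by_contra hne
  obtain ⟨t, ht, htd⟩ := Nat.exists_prime_and_dvd hne
  exact hT t ht (htd.trans (Nat.gcd_dvd_left _ _)) (htd.trans (Nat.gcd_dvd_right _ _))

end Soc

end Cfsg.Agent.H60.DE
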